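import Cfsg.Agent.Lib.Solv.PGroup
import Cfsg.Agent.Lib.SS.Gaschutz
import Cfsg.Prelude.Def_Transfer

/-!
# Wielandt--Yoshida: monomial products over invariant subsets of `G ⧸ H`.
-/

set_option autoImplicit false
set_option linter.unusedSectionVars false
set_option linter.style.haveILetI false
set_option linter.unusedVariables false

namespace CfsgLib.WY

open Subgroup

section Pascal

variable {A : Type*} [CommGroup A]

theorem seq_pascal_aux (F : ℕ → ℕ → A) (hF : ∀ k i, F k (i + 1) = F k i * F (k + 1) i) (n : ℕ) : ∀ k,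
    ∏ i ∈ Finset.range n, F k i = ∏ j ∈ Finset.range n, F (k + j) 0 ^ (n.choose (j + 1)) := by
  induction n with
  | zero => intro k; simp
  | succ n ih =>
    intro k
    have e1 : ∏ i ∈ Finset.range (n + 1), F k i =
        F k 0 * (∏ i ∈ Finset.range n, F k i) * (∏ i ∈ Finset.range n, F (k + 1) i) := by
      rw [Finset.prod_range_succ']
      simp_rw [hF k]
      rw [Finset.prod_mul_distrib, mul_comm, mul_assoc]
    rw [e1, ih k, ih (k + 1)]
    have e2 : ∀ j, F (k + j) 0 ^ ((n + 1).choose (j + 1)) =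
        F (k + j) 0 ^ (n.choose j) * F (k + j) 0 ^ (n.choose (j + 1)) := by
      intro j
      rw [Nat.choose_succ_succ, pow_add]
    simp_rw [e2]
    rw [Finset.prod_mul_distrib, Finset.prod_range_succ' (fun j => F (k + j) 0 ^ n.choose j),
      Finset.prod_range_succ (fun j => F (k + j) 0 ^ n.choose (j + 1))]
    simp only [Nat.choose_zero_right, pow_one, add_zero, Nat.choose_succ_self, pow_zero, mul_one]
    have e3 : ∀ j, k + 1 + j = k + (j + 1) := by intro j; omega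
    simp_rw [e3]
    rw [mul_comm (∏ j ∈ Finset.range n, F (k + (j + 1)) 0 ^ n.choose (j + 1)) (F k 0)]
    exact mul_right_comm _ _ _

theorem seq_pascal {p : ℕ} (hp : p.Prime) (hA : ∀ a : A, a ^ p = 1) (F : ℕ → ℕ → A)
    (hF : ∀ k i, F k (i + 1) = F k i * F (k + 1) i) :
    ∏ i ∈ Finset.range p, F 0 i = F (p - 1) 0 := by
  rw [seq_pascal_aux F hF p 0]
  rw [Finset.prod_eq_single (p - 1)]
  · have : p - 1 + 1 = p := Nat.sub_add_cancel hp.one_le
    simp [this]
  · intro j hj hne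
    have hj' := Finset.mem_range.mp hj
    obtain ⟨q, hq⟩ := hp.dvd_choose_self (by omega : j + 1 ≠ 0) (by omega : j + 1 < p)
    rw [hq, pow_mul, hA, one_pow]
  · intro h
    exact absurd (Finset.mem_range.mpr (by have := hp.pos; omega)) h

end Pascal

section Orbits

open Classical in
theorem prod_orbits {E : Type*} [Fintype E] {K : Type*} [Group K] [MulAction K E] {C : Type*} [CommMonoid C]
    (f : E → C) (Y : Finset E) (hY : ∀ (k : K) ω, ω ∈ Y → k • ω ∈ Y)
    (h : ∀ ω ∈ Y, ∏ ω' ∈ Finset.univ.filter (· ∈ MulAction.orbit K ω), f ω' = 1) : ∏ ω ∈ Y, f ω = 1 := by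
  rw [Finset.prod_partition (MulAction.orbitRel K E)]
  apply Finset.prod_eq_one
  intro q hq
  obtain ⟨ω, hω, rfl⟩ := Finset.mem_image.mp hq
  rw [← h ω hω]
  apply Finset.prod_congr _ (fun _ _ => rfl)
  ext ω'
  simp only [Finset.mem_filter, Finset.mem_univ, true_and]
  constructor
  · rintro ⟨-, h2⟩
    have h3 : (MulAction.orbitRel K E).r ω' ω := Quotient.exact h2
    exact h3
  · intro h2
    refine ⟨?_, Quotient.sound h2⟩
    obtain ⟨k, rfl⟩ := h2
    exact hY k ω hω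

end Orbits

section Coc

variable {G : Type*} [Group G] (H : Subgroup G) {A : Type*} [CommGroup A] (θ : H →* A)

open Classical in
/-- `θ` extended by one outside `H`. -/
noncomputable def ex (g : G) : A := if h : g ∈ H then θ ⟨g, h⟩ else 1

theorem ex_of_mem {g : G} (h : g ∈ H) : ex H θ g = θ ⟨g, h⟩ := dif_pos h

theorem ex_mul {a b : G} (ha : a ∈ H) (hb : b ∈ H) : ex H θ (a * b) = ex H θ a * ex H θ b := by
  rw [ex_of_mem H θ (H.mul_mem ha hb), ex_of_mem H θ ha, ex_of_mem H θ hb, ← map_mul]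
  rfl

theorem ex_one : ex H θ 1 = 1 := by
  rw [ex_of_mem H θ H.one_mem]
  exact map_one θ

theorem ex_inv {a : G} (ha : a ∈ H) : ex H θ a⁻¹ = (ex H θ a)⁻¹ := by
  rw [ex_of_mem H θ (H.inv_mem ha), ex_of_mem H θ ha, ← map_inv]
  rfl

theorem ex_pow {a : G} (ha : a ∈ H) (n : ℕ) : ex H θ (a ^ n) = (ex H θ a) ^ n := by
  rw [ex_of_mem H θ (H.pow_mem ha n), ex_of_mem H θ ha, ← map_pow]
  rfl

theorem ex_conj {a h : G} (ha : a ∈ H) (hh : h ∈ H) : ex H θ (h⁻¹ * a * h) = ex H θ a := by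
  rw [ex_mul H θ (H.mul_mem (H.inv_mem hh) ha) hh, ex_mul H θ (H.inv_mem hh) ha, ex_inv H θ hh]
  rw [mul_comm (ex H θ h)⁻¹, mul_assoc, inv_mul_cancel, mul_one]

theorem out_mem_of (u : G) (ω : G ⧸ H) : (u * ω.out : G) = u * ω.out := rfl

theorem mk_mul_out (u : G) (ω : G ⧸ H) : ((u * ω.out : G) : G ⧸ H) = u • ω := by
  conv_rhs => rw [← QuotientGroup.out_eq' ω]
  rfl

theorem cc_mem (u : G) (ω : G ⧸ H) : (u • ω).out⁻¹ * u * ω.out ∈ H := by
  rw [mul_assoc]
  apply QuotientGroup.eq.mp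
  rw [mk_mul_out, QuotientGroup.out_eq']

/-- The monomial cocycle. -/
noncomputable def cc (u : G) (ω : G ⧸ H) : A := ex H θ ((u • ω).out⁻¹ * u * ω.out)

theorem cc_mul (u v : G) (ω : G ⧸ H) : cc H θ (u * v) ω = cc H θ u (v • ω) * cc H θ v ω := by
  unfold cc
  rw [← ex_mul H θ (cc_mem H u (v • ω)) (cc_mem H v ω)]
  congr 1
  rw [mul_smul]
  group

theorem cc_one (ω : G ⧸ H) : cc H θ 1 ω = 1 := by
  unfold cc
  rw [one_smul, mul_one, inv_mul_cancel, ex_one]

theorem cc_pow (y : G) (ω : G ⧸ H) (n : ℕ) :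
    ∏ i ∈ Finset.range n, cc H θ y (y ^ i • ω) = cc H θ (y ^ n) ω := by
  induction n with
  | zero => simp [cc_one]
  | succ n ih => rw [Finset.prod_range_succ, ih, pow_succ', cc_mul, mul_comm]

/-- The product over a finite set of cosets. -/
noncomputable def TT (Y : Finset (G ⧸ H)) (u : G) : A := ∏ ω ∈ Y, cc H θ u ω

/-- `u` stabilises `Y`. -/
def Stb (Y : Finset (G ⧸ H)) (u : G) : Prop := ∀ ω, ω ∈ Y ↔ u • ω ∈ Y

variable {H}

theorem Stb.mul {Y : Finset (G ⧸ H)} {u v : G} (hu : Stb H Y u) (hv : Stb H Y v) : Stb H Y (u * v) := by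
  intro ω
  rw [mul_smul, ← hu, ← hv]

theorem Stb.inv {Y : Finset (G ⧸ H)} {u : G} (hu : Stb H Y u) : Stb H Y u⁻¹ := by
  intro ω
  rw [hu (u⁻¹ • ω), smul_inv_smul]

variable (H)

theorem TT_mul {Y : Finset (G ⧸ H)} {u v : G} (hv : Stb H Y v) : TT H θ Y (u * v) = TT H θ Y u * TT H θ Y v := by
  unfold TT
  simp_rw [cc_mul]
  rw [Finset.prod_mul_distrib]
  congr 1
  exact Finset.prod_equiv (MulAction.toPerm v) hv (fun _ _ => rfl)

theorem TT_one (Y : Finset (G ⧸ H)) : TT H θ Y 1 = 1 := by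
  unfold TT
  exact Finset.prod_eq_one (fun ω _ => cc_one H θ ω)

theorem prod_shift {Y : Finset (G ⧸ H)} (u z : G) (h : Stb H Y (z⁻¹ * u * z)) :
    ∏ ω ∈ Y, cc H θ u (z • ω) = TT H θ Y (z⁻¹ * u * z) := by
  unfold TT
  have e : ∀ ω, cc H θ (z⁻¹ * u * z) ω = cc H θ z⁻¹ (u • z • ω) * cc H θ u (z • ω) * cc H θ z ω := by
    intro ω
    rw [cc_mul, cc_mul]
  simp_rw [e]
  have e1 : ∏ ω ∈ Y, cc H θ z⁻¹ (u • z • ω) = ∏ ω ∈ Y, cc H θ z⁻¹ (z • ω) :=
    Finset.prod_equiv (MulAction.toPerm (z⁻¹ * u * z)) h (fun ω _ => by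
      simp [MulAction.toPerm_apply, mul_smul])
  have e2 : (∏ ω ∈ Y, cc H θ z⁻¹ (z • ω)) * ∏ ω ∈ Y, cc H θ z ω = 1 := by
    rw [← Finset.prod_mul_distrib]
    apply Finset.prod_eq_one
    intro ω _
    rw [← cc_mul, inv_mul_cancel, cc_one]
  rw [Finset.prod_mul_distrib, Finset.prod_mul_distrib, e1, mul_right_comm, e2, one_mul]

open Classical in
theorem prod_cycle [Fintype (G ⧸ H)] [Finite G] (y : G) (ω : G ⧸ H) :
    ∏ ω' ∈ Finset.univ.filter (· ∈ MulAction.orbit (zpowers y) ω), cc H θ y ω' =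
      cc H θ (y ^ Function.minimalPeriod (y • ·) ω) ω := by
  set n := Function.minimalPeriod (y • ·) ω with hn
  have hnpos : 0 < n := by
    have h1 : y ^ orderOf y • ω = ω := by rw [pow_orderOf_eq_one, one_smul]
    exact Nat.pos_of_dvd_of_pos (MulAction.pow_smul_eq_iff_minimalPeriod_dvd.mp h1) (orderOf_pos y)
  rw [← cc_pow]
  have hinj : Set.InjOn (fun i : ℕ => y ^ i • ω) (Finset.range n : Set ℕ) := by
    intro i hi j hj hij
    have h1 := Function.iterate_injOn_Iio_minimalPeriod (f := (y • ·)) (x := ω)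
    apply h1 (by simpa using hi) (by simpa using hj)
    simp only [smul_iterate]
    exact hij
  have himg : Finset.univ.filter (· ∈ MulAction.orbit (zpowers y) ω) = (Finset.range n).image (fun i : ℕ => y ^ i • ω) := by
    ext ω'
    simp only [Finset.mem_filter, Finset.mem_univ, true_and, Finset.mem_image, Finset.mem_range]
    constructor
    · rintro ⟨⟨x, hx⟩, rfl⟩
      obtain ⟨m, rfl⟩ := Subgroup.mem_zpowers_iff.mp hx
      have h1 := MulAction.zpow_smul_mod_minimalPeriod y ω m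
      have h0 : (0 : ℤ) ≤ m % (n : ℤ) := Int.emod_nonneg _ (by omega)
      have h2 : m % (n : ℤ) < n := Int.emod_lt_of_pos _ (by omega)
      refine ⟨(m % (n : ℤ)).toNat, by omega, ?_⟩
      show y ^ (m % (n : ℤ)).toNat • ω = y ^ m • ω
      rw [← h1, ← zpow_natCast, Int.toNat_of_nonneg h0]
    · rintro ⟨i, hi, rfl⟩
      exact ⟨⟨y ^ i, npow_mem_zpowers y i⟩, rfl⟩
  rw [himg, Finset.prod_image hinj]

end Coc

end CfsgLib.WY
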