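import Cfsg.Agent.Lib.WY.Ext
import Cfsg.Prelude.Def_BaumannBlocks

/-!
# Wielandt--Yoshida: the consequences for `O^p` and for commutator subgroups.
-/

set_option autoImplicit false
set_option linter.unusedSectionVars false
set_option linter.style.haveILetI false
set_option linter.unusedVariables false

namespace CfsgLib.WY

open Subgroup Cfsg
open scoped Pointwise

universe u

variable {G : Type u} [Group G] [Finite G] {p : ℕ} [hpf : Fact p.Prime]

theorem pres_normal (Γ : Type u) [Group Γ] : (pResidual p Γ).Normal := by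
  refine ⟨fun n hn g => ?_⟩
  have : pResidual p Γ ≤ (pResidual p Γ).comap (MulAut.conj g).toMonoidHom := by
    refine (closure_le _).mpr ?_
    intro x hx
    apply Subgroup.subset_closure
    change Nat.Coprime (orderOf (g * x * g⁻¹)) p
    have h1 : orderOf (g * x * g⁻¹) = orderOf x :=
      orderOf_injective (MulAut.conj g).toMonoidHom (MulAut.conj g).injective x
    rw [h1]
    exact hx
  exact this hn

theorem pres_quot_pgroup (Γ : Type u) [Group Γ] [Finite Γ] [(pResidual p Γ).Normal] : IsPGroup p (Γ ⧸ pResidual p Γ) := by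
  have hpp := hpf.out
  intro q
  obtain ⟨x, rfl⟩ := QuotientGroup.mk_surjective q
  obtain ⟨a, m, hm, hma⟩ := Nat.exists_eq_pow_mul_and_not_dvd (isOfFinOrder_of_finite x).orderOf_pos.ne' p hpp.ne_one
  refine ⟨a, ?_⟩
  rw [← QuotientGroup.mk_pow, QuotientGroup.eq_one_iff]
  apply Subgroup.subset_closure
  change Nat.Coprime (orderOf (x ^ p ^ a)) p
  have h1 : (x ^ p ^ a) ^ m = 1 := by
    rw [← pow_mul, ← hma, pow_orderOf_eq_one]
  have h2 : orderOf (x ^ p ^ a) ∣ m := orderOf_dvd_of_pow_eq_one h1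
  exact Nat.Coprime.coprime_dvd_left h2 ((Nat.Prime.coprime_iff_not_dvd hpp).mpr hm).symm

theorem pres_le_ker {Q : Type*} [Group Q] [Finite Q] (hQ : IsPGroup p Q) (F : G →* Q) : pResidual p G ≤ F.ker := by
  have hpp := hpf.out
  refine (closure_le _).mpr ?_
  intro x hx
  have hx' : Nat.Coprime (orderOf x) p := hx
  obtain ⟨k, hk⟩ := hQ (F x)
  have h1 : orderOf (F x) ∣ p ^ k := orderOf_dvd_of_pow_eq_one hk
  have h2 : orderOf (F x) ∣ orderOf x := orderOf_map_dvd F x
  have h3 : Nat.Coprime (orderOf x) (p ^ k) := Nat.Coprime.pow_right _ hx'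
  have h4 : orderOf (F x) = 1 := Nat.eq_one_of_dvd_coprimes h3 h2 h1
  exact orderOf_eq_one_iff.mp h4

variable {W : Subgroup G}

local notation "HH" => normalizer ((W : Subgroup G) : Set G)

theorem wy_res (S : Sylow p G) (hW : IsWeaklyClosed W (S : Subgroup G)) (hyp : WYHyp p (S : Subgroup G) W) :
    pResidualOf p (HH) = pResidual p G ⊓ HH := by
  apply le_antisymm
  · refine le_inf ?_ (map_subtype_le _)
    rw [pResidualOf, pResidual, MonoidHom.map_closure, closure_le]
    rintro _ ⟨h, hh, rfl⟩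
    apply Subgroup.subset_closure
    have hh' : Nat.Coprime (orderOf h) p := hh
    show Nat.Coprime (orderOf (h : G)) p
    rwa [Subgroup.orderOf_coe]
  · rintro x ⟨hxG, hxH⟩
    haveI := pres_normal (p := p) ↥(HH)
    obtain ⟨F, hF⟩ := wy_extend S hW hyp _ (↥(HH) ⧸ pResidual p ↥(HH)) (pres_quot_pgroup _) rfl (QuotientGroup.mk' _)
    have h1 : F x = 1 := pres_le_ker (pres_quot_pgroup _) F hxG
    have h2 := hF ⟨x, hxH⟩
    have h3 : ((⟨x, hxH⟩ : ↥(HH)) : ↥(HH) ⧸ pResidual p ↥(HH)) = 1 := by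
      rw [← h1]
      exact h2.symm
    exact ⟨_, (QuotientGroup.eq_one_iff _).mp h3, rfl⟩

theorem wy_comm (S : Sylow p G) (hW : IsWeaklyClosed W (S : Subgroup G)) (hyp : WYHyp p (S : Subgroup G) W) :
    (S : Subgroup G) ⊓ commutator G = (S : Subgroup G) ⊓ ⁅HH, HH⁆ := by
  classical
  have hpp := hpf.out
  apply le_antisymm
  · rintro x ⟨hxS, hxG⟩
    refine ⟨hxS, ?_⟩
    have hxH : x ∈ HH := sylow_le_norm S hW hxS
    obtain ⟨a, m, hm, hN⟩ := Nat.exists_eq_pow_mul_and_not_dvd
      (Nat.card_pos (α := Abelianization ↥(HH))).ne' p hpp.ne_one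
    let r : Abelianization ↥(HH) →* Abelianization ↥(HH) := powMonoidHom m
    have hQ : IsPGroup p r.range := by
      rintro ⟨_, b, rfl⟩
      refine ⟨a, ?_⟩
      apply Subtype.ext
      show (b ^ m) ^ p ^ a = 1
      rw [← pow_mul, mul_comm, ← hN, pow_card_eq_one']
    let f : ↥(HH) →* r.range := r.rangeRestrict.comp Abelianization.of
    obtain ⟨F, hF⟩ := wy_extend S hW hyp _ r.range hQ rfl f
    have hFx : F x = 1 := by
      have h1 : commutator G ≤ F.ker := by
        rw [_root_.commutator_def, Subgroup.commutator_le]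
        intro a _ b _
        rw [MonoidHom.mem_ker, map_commutatorElement, commutatorElement_eq_one_iff_mul_comm]
        exact mul_comm _ _
      exact h1 hxG
    have h1 : f ⟨x, hxH⟩ = 1 := by
      rw [← hF]
      exact hFx
    have h2 : (Abelianization.of (⟨x, hxH⟩ : ↥(HH))) ^ m = 1 := congrArg Subtype.val h1
    obtain ⟨k, hk⟩ : ∃ k, x ^ (p ^ k) = 1 := by
      obtain ⟨k, hk⟩ := S.isPGroup' ⟨x, hxS⟩
      exact ⟨k, by simpa using congrArg Subtype.val hk⟩
    have h3 : (Abelianization.of (⟨x, hxH⟩ : ↥(HH))) ^ (p ^ k) = 1 := by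
      rw [← map_pow]
      have h4 : (⟨x, hxH⟩ : ↥(HH)) ^ (p ^ k) = 1 := Subtype.ext hk
      rw [h4, map_one]
    have h4 : Abelianization.of (⟨x, hxH⟩ : ↥(HH)) = 1 := by
      have hcop : Nat.Coprime m (p ^ k) := Nat.Coprime.pow_right _ ((Nat.Prime.coprime_iff_not_dvd hpp).mpr hm).symm
      have h5 := Nat.eq_one_of_dvd_coprimes hcop (orderOf_dvd_of_pow_eq_one h2) (orderOf_dvd_of_pow_eq_one h3)
      exact orderOf_eq_one_iff.mp h5
    have h5 : (⟨x, hxH⟩ : ↥(HH)) ∈ commutator ↥(HH) := (QuotientGroup.eq_one_iff _).mp h4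
    have h6 := Subgroup.map_subtype_commutator (HH)
    rw [← h6]
    exact ⟨_, h5, rfl⟩
  · apply inf_le_inf_left
    rw [_root_.commutator_def]
    exact Subgroup.commutator_mono le_top le_top

end CfsgLib.WY
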