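import Cfsg.Agent.Lib.WY.Main

/-!
# Wielandt--Yoshida: extension of homomorphisms to `p`-groups.
-/

set_option autoImplicit false
set_option linter.unusedSectionVars false
set_option linter.style.haveILetI false
set_option linter.unusedVariables false

namespace CfsgLib.WY

open Subgroup Cfsg
open scoped Pointwise

universe u

section Lift

variable {G : Type u} [Group G] [Finite G] {p : ℕ} [hpf : Fact p.Prime]

theorem central_lift (H : Subgroup G) (hidx : ¬ p ∣ H.index) {Q : Type u} [Group Q] [Finite Q] (Z : Subgroup Q)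
    [hZn : Z.Normal] (hZc : Z ≤ center Q) (hZp : Nat.card Z = p) (Fb : G →* Q ⧸ Z) (f : H →* Q)
    (hf : ∀ h : H, Fb h = (f h : Q ⧸ Z)) : ∃ F₁ : G →* Q, ∀ g, (F₁ g : Q ⧸ Z) = Fb g := by
  classical
  have hpp : p.Prime := hpf.out
  set π : Q →* Q ⧸ Z := QuotientGroup.mk' Z with hπ
  have hπs : Function.Surjective π := QuotientGroup.mk'_surjective Z
  set Y : Subgroup (G × Q) := MonoidHom.eqLocus (Fb.comp (MonoidHom.fst G Q)) (π.comp (MonoidHom.snd G Q)) with hY
  have hYmem : ∀ g x, (g, x) ∈ Y ↔ Fb g = π x := fun g x => Iff.rfl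
  set f0 : Y →* G := (MonoidHom.fst G Q).comp Y.subtype with hf0
  have hfs : Function.Surjective f0 := by
    intro g
    obtain ⟨x, hx⟩ := hπs (Fb g)
    exact ⟨⟨(g, x), (hYmem g x).mpr hx.symm⟩, rfl⟩
  set W : Subgroup Y := f0.ker with hW
  haveI hWn : W.Normal := MonoidHom.normal_ker f0
  have hWmem : ∀ y : Y, y ∈ W ↔ y.1.1 = 1 := fun y => Iff.rfl
  have hWsnd : ∀ y ∈ W, y.1.2 ∈ Z := by
    intro y hy
    have h1 : Fb y.1.1 = π y.1.2 := y.2
    rw [(hWmem y).mp hy, map_one] at h1
    exact (QuotientGroup.eq_one_iff _).mp h1.symm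
  haveI hWc : IsMulCommutative W := by
    refine ⟨⟨fun a b => ?_⟩⟩
    apply Subtype.ext
    apply Subtype.ext
    apply Prod.ext
    · show a.1.1.1 * b.1.1.1 = b.1.1.1 * a.1.1.1
      rw [(hWmem a.1).mp a.2, (hWmem b.1).mp b.2]
    · show a.1.1.2 * b.1.1.2 = b.1.1.2 * a.1.1.2
      exact (mem_center_iff.mp (hZc (hWsnd a.1 a.2)) _).symm
  set U : Subgroup Y := H.comap f0 with hU
  have hWU : W ≤ U := by
    intro y hy
    show f0 y ∈ H
    rw [MonoidHom.mem_ker.mp hy]
    exact one_mem _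
  have hidxU : U.index = H.index := Subgroup.index_comap_of_surjective _ hfs
  have hcop : (Nat.card W).Coprime U.index := by
    have h1 : Nat.card W ∣ p := by
      rw [← hZp]
      let g : W →* Z := ((MonoidHom.snd G Q).comp (Y.subtype.comp W.subtype)).codRestrict Z (fun y => hWsnd y.1 y.2)
      have hg : Function.Injective g := by
        intro a b hab
        apply Subtype.ext
        apply Subtype.ext
        apply Prod.ext
        · rw [(hWmem a.1).mp a.2, (hWmem b.1).mp b.2]
        · exact congrArg Subtype.val hab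
      exact Subgroup.card_dvd_of_injective g hg
    rw [hidxU]
    apply Nat.Coprime.coprime_dvd_left h1
    exact (Nat.Prime.coprime_iff_not_dvd hpp).mpr hidx
  let t : H →* Y := (MonoidHom.prod H.subtype f).codRestrict Y (by
    intro u
    exact hf u)
  have htf : ∀ u, f0 (t u) = (u : G) := fun u => rfl
  have ht2 : ∀ u, (t u).1.2 = f u := fun u => rfl
  set A : Subgroup Y := t.range with hA
  have hAU : A ≤ U := by
    rintro _ ⟨u, rfl⟩
    show f0 (t u) ∈ H
    rw [htf]
    exact u.2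
  have hAW : A ⊓ W = ⊥ := by
    rw [eq_bot_iff]
    rintro y ⟨⟨u, rfl⟩, hy⟩
    have h1 : f0 (t u) = 1 := hy
    rw [htf] at h1
    have h2 : u = 1 := Subtype.ext h1
    rw [h2, map_one]
    exact one_mem _
  have hWA : W ⊔ A = U := by
    apply le_antisymm (sup_le hWU hAU)
    intro y hy
    have hy' : f0 y ∈ H := hy
    have h1 : y * (t ⟨f0 y, hy'⟩)⁻¹ ∈ W := by
      apply MonoidHom.mem_ker.mpr
      rw [map_mul, map_inv, htf, mul_inv_cancel]
    have h2 : y = (y * (t ⟨f0 y, hy'⟩)⁻¹) * t ⟨f0 y, hy'⟩ := by group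
    rw [h2]
    exact Subgroup.mul_mem _ (Subgroup.mem_sup_left h1) (Subgroup.mem_sup_right ⟨_, rfl⟩)
  obtain ⟨C, hC⟩ := CfsgLib.SS.gaschutz_exists W U hWU hcop A hAU hAW hWA
  have hCW : W ⊓ C = ⊥ := hC.disjoint.eq_bot
  let e : C →* G := f0.comp C.subtype
  have hei : Function.Injective e := by
    rw [injective_iff_map_eq_one]
    intro a ha
    have h1 : (a : Y) ∈ W ⊓ C := ⟨ha, a.2⟩
    rw [hCW] at h1
    exact Subtype.ext (by simpa using h1)
  have hes : Function.Surjective e := by
    intro g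
    obtain ⟨y, rfl⟩ := hfs g
    obtain ⟨⟨w, h⟩, hwh, -⟩ := hC.existsUnique y
    have hwh' : (w : Y) * h = y := hwh
    refine ⟨h, ?_⟩
    show f0 h = f0 y
    rw [← hwh', map_mul, MonoidHom.mem_ker.mp w.2, one_mul]
  let E : C ≃* G := MulEquiv.ofBijective e ⟨hei, hes⟩
  have hE : ∀ g, f0 (E.symm g : Y) = g := fun g => E.apply_symm_apply g
  let φ' : G →* Q := (MonoidHom.snd G Q).comp (Y.subtype.comp (C.subtype.comp E.symm.toMonoidHom))
  refine ⟨φ', ?_⟩
  intro g
  have h1 : Fb (E.symm g : Y).1.1 = π (E.symm g : Y).1.2 := (E.symm g : Y).2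
  have h2 : (E.symm g : Y).1.1 = g := hE g
  rw [h2] at h1
  exact h1.symm

variable {W : Subgroup G}

local notation "HH" => normalizer ((W : Subgroup G) : Set G)

theorem wy_extend (S : Sylow p G) (hW : IsWeaklyClosed W (S : Subgroup G)) (hyp : WYHyp p (S : Subgroup G) W) :
    ∀ (n : ℕ) (Q : Type u) [Group Q] [Finite Q], IsPGroup p Q → Nat.card Q = n → ∀ f : HH →* Q,
      ∃ F : G →* Q, ∀ h : HH, F h = f h := by
  intro n
  induction n using Nat.strong_induction_on with
  | _ n IH =>
    intro Q _ _ hQ hn f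
    have hpp := hpf.out
    have hSH := sylow_le_norm S hW
    have hidx : ¬ p ∣ (HH).index := by
      intro h
      exact S.not_dvd_index (h.trans (Subgroup.index_dvd_of_le hSH))
    by_cases hQ1 : Nat.card Q = 1
    · haveI : Subsingleton Q := (Nat.card_eq_one_iff_unique.mp hQ1).1
      exact ⟨1, fun h => Subsingleton.elim _ _⟩
    · haveI : Nontrivial Q := by
        by_contra hc
        rw [not_nontrivial_iff_subsingleton] at hc
        exact hQ1 (Nat.card_of_subsingleton (1 : Q))
      haveI hcn : Nontrivial (center Q) := hQ.center_nontrivial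
      have hcp : IsPGroup p (center Q) := hQ.to_subgroup _
      obtain ⟨a, ha⟩ := IsPGroup.iff_card.mp hcp
      have hdv : p ∣ Nat.card (center Q) := by
        rw [ha]
        apply dvd_pow_self
        rintro rfl
        have h1 : Nat.card (center Q) = 1 := by rw [ha, pow_zero]
        have h2 := Finite.one_lt_card_iff_nontrivial.mpr hcn
        omega
      obtain ⟨z₀, hz₀⟩ := exists_prime_orderOf_dvd_card' p hdv
      set Z : Subgroup Q := zpowers (z₀ : Q) with hZ
      have hZc : Z ≤ center Q := zpowers_le.mpr z₀.2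
      haveI hZn : Z.Normal := by
        refine ⟨fun x hx g => ?_⟩
        have h1 : g * x = x * g := (mem_center_iff.mp (hZc hx) g)
        rw [h1, mul_inv_cancel_right]
        exact hx
      have hZp : Nat.card Z = p := by
        rw [hZ, Nat.card_zpowers, Subgroup.orderOf_coe, hz₀]
      have hcq : Nat.card Q = Nat.card (Q ⧸ Z) * Nat.card Z := Subgroup.card_eq_card_quotient_mul_card_subgroup Z
      have hlt : Nat.card (Q ⧸ Z) < n := by
        rw [← hn, hcq, hZp]
        have h1 : 0 < Nat.card (Q ⧸ Z) := Nat.card_pos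
        have h2 := hpp.two_le
        nlinarith
      obtain ⟨Fb, hFb⟩ := IH _ hlt (Q ⧸ Z) (hQ.to_quotient Z) rfl ((QuotientGroup.mk' Z).comp f)
      obtain ⟨F₁, hF₁⟩ := central_lift (HH) hidx Z hZc hZp Fb f hFb
      have hαZ : ∀ h : HH, F₁ h * (f h)⁻¹ ∈ Z := by
        intro h
        rw [← QuotientGroup.eq_one_iff, QuotientGroup.mk_mul, QuotientGroup.mk_inv, hF₁, hFb]
        exact mul_inv_cancel _
      letI : CommGroup Z := { (inferInstance : Group Z) with
        mul_comm := fun a b => Subtype.ext ((mem_center_iff.mp (hZc a.2) b).symm) }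
      have hZexp : ∀ a : Z, a ^ p = 1 := by
        intro a
        have h1 : orderOf a ∣ Nat.card Z := orderOf_dvd_natCard a
        rw [hZp] at h1
        exact orderOf_dvd_iff_pow_eq_one.mp h1
      have hcen : ∀ (a : Z) (x : Q), (a : Q) * x = x * a := fun a x => (mem_center_iff.mp (hZc a.2) x).symm
      let α : HH →* Z := MonoidHom.mk' (fun h => ⟨F₁ h * (f h)⁻¹, hαZ h⟩) (by
        intro a b
        apply Subtype.ext
        show F₁ (a * b) * (f (a * b))⁻¹ = (F₁ a * (f a)⁻¹) * (F₁ b * (f b)⁻¹)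
        have h1 := hcen ⟨F₁ b * (f b)⁻¹, hαZ b⟩ (f a)⁻¹
        simp only at h1
        rw [map_mul, map_mul]
        calc F₁ a * F₁ b * (f a * f b)⁻¹ = F₁ a * (F₁ b * (f b)⁻¹ * (f a)⁻¹) := by group
          _ = F₁ a * ((f a)⁻¹ * (F₁ b * (f b)⁻¹)) := by rw [h1]
          _ = _ := by group)
      obtain ⟨V, hV⟩ := wy_transfer S hW hyp (A := Z) hZexp α
      have hVα : ∀ h : HH, V h = α h := by
        let δ : HH →* Z := (V.comp (HH).subtype) / α
        have hδ : δ = 1 := hom_eq_of_sylow (HH) S hSH (hQ.to_subgroup Z) δ (by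
          intro s hs
          show V s / α ⟨s, hSH hs⟩ = 1
          rw [hV s hs (hSH hs), div_self'])
        intro h
        have h1 : V h / α h = 1 := DFunLike.congr_fun hδ h
        exact div_eq_one.mp h1
      have hinv : ∀ (c : Z) (x : Q), (c : Q)⁻¹ * x = x * (c : Q)⁻¹ := by
        intro c x
        have h1 := hcen c x
        calc (c : Q)⁻¹ * x = (c : Q)⁻¹ * (x * c) * (c : Q)⁻¹ := by group
          _ = (c : Q)⁻¹ * (c * x) * (c : Q)⁻¹ := by rw [h1]
          _ = x * (c : Q)⁻¹ := by group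
      refine ⟨MonoidHom.mk' (fun g => F₁ g * ((V g : Z) : Q)⁻¹) ?_, ?_⟩
      · intro a b
        have h1 : ((V (a * b) : Z) : Q) = (V a : Q) * (V b : Q) := by
          rw [map_mul]
          rfl
        rw [h1, map_mul, mul_inv_rev]
        calc F₁ a * F₁ b * ((V b : Q)⁻¹ * (V a : Q)⁻¹) = F₁ a * ((F₁ b * (V b : Q)⁻¹) * (V a : Q)⁻¹) := by group
          _ = F₁ a * ((V a : Q)⁻¹ * (F₁ b * (V b : Q)⁻¹)) := by rw [hinv (V a) (F₁ b * (V b : Q)⁻¹)]
          _ = _ := by group
      · intro h
        show F₁ h * ((V h : Z) : Q)⁻¹ = f h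
        rw [hVα h]
        rw [← hinv (α h) (F₁ h)]
        show (F₁ h * (f h)⁻¹)⁻¹ * F₁ h = f h
        group

end Lift

end CfsgLib.WY
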