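import Cfsg.Agent.Lib.WY.Coc

/-!
# Wielandt--Yoshida: the transfer evaluation.
-/

set_option autoImplicit false
set_option linter.unusedSectionVars false
set_option linter.style.haveILetI false
set_option linter.unusedVariables false

namespace CfsgLib.WY

open Subgroup Cfsg
open scoped Pointwise

variable {G : Type*} [Group G] [Finite G] {p : ℕ} [hpf : Fact p.Prime]

theorem conj_into_sylow (S : Sylow p G) (H : Subgroup G) (hSH : (S : Subgroup G) ≤ H) (R : Subgroup G) (hRH : R ≤ H)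
    (hR : IsPGroup p R) : ∃ h ∈ H, R.map (MulAut.conj h).toMonoidHom ≤ S := by
  have hR' : IsPGroup p (R.subgroupOf H) := hR.comap_of_injective H.subtype Subtype.val_injective
  obtain ⟨Q, hQ⟩ := hR'.exists_le_sylow
  obtain ⟨h, hh⟩ := MulAction.exists_smul_eq H Q (S.subtype hSH)
  refine ⟨h, h.2, ?_⟩
  rintro _ ⟨r, hr, rfl⟩
  have h1 : (⟨r, hRH hr⟩ : H) ∈ (Q : Subgroup H) := hQ (by simpa [mem_subgroupOf] using hr)
  have h2 : MulAut.conj h • (⟨r, hRH hr⟩ : H) ∈ ((h • Q : Sylow p H) : Subgroup H) := by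
    rw [Sylow.coe_subgroup_smul]
    exact Subgroup.smul_mem_pointwise_smul _ _ _ h1
  rw [hh, Sylow.coe_subtype, mem_subgroupOf] at h2
  exact h2

theorem conj_elem (S : Sylow p G) (H : Subgroup G) (hSH : (S : Subgroup G) ≤ H) {u : G} (hu : u ∈ (S : Subgroup G))
    (g : G) (hg : g * u * g⁻¹ ∈ H) : ∃ h ∈ H, (h * g) * u * (h * g)⁻¹ ∈ (S : Subgroup G) := by
  have hRp : IsPGroup p ((zpowers u).map (MulAut.conj g).toMonoidHom) :=
    (S.isPGroup'.to_le (zpowers_le.mpr hu)).map _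
  have hRH : (zpowers u).map (MulAut.conj g).toMonoidHom ≤ H := by
    rw [MonoidHom.map_zpowers, zpowers_le]
    exact hg
  obtain ⟨h, hh, hle⟩ := conj_into_sylow S H hSH _ hRH hRp
  refine ⟨h, hh, ?_⟩
  have := hle ⟨_, ⟨u, mem_zpowers u, rfl⟩, rfl⟩
  simpa [MulAut.conj_apply, mul_assoc] using this

theorem mem_normalizer_of_map {W : Subgroup G} {g : G} (h : W.map (MulAut.conj g).toMonoidHom = W) :
    g ∈ normalizer (W : Set G) := by
  rw [mem_normalizer_iff]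
  intro x
  constructor
  · intro hx
    have : g * x * g⁻¹ ∈ W.map (MulAut.conj g).toMonoidHom := ⟨x, hx, rfl⟩
    rwa [h] at this
  · intro hx
    have hx' : g * x * g⁻¹ ∈ W.map (MulAut.conj g).toMonoidHom := by rwa [h]
    obtain ⟨x', hx', he⟩ := hx'
    have : x' = x := by simpa [MulAut.conj_apply] using he
    rwa [← this]

theorem sylow_le_norm (S : Sylow p G) {W : Subgroup G} (hW : IsWeaklyClosed W (S : Subgroup G)) :
    (S : Subgroup G) ≤ normalizer (W : Set G) := by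
  intro s hs
  apply mem_normalizer_of_map
  apply hW.2
  rintro _ ⟨w, hw, rfl⟩
  exact S.mul_mem (S.mul_mem hs (hW.1 hw)) (S.inv_mem hs)

variable {W : Subgroup G}

local notation "HH" => normalizer ((W : Subgroup G) : Set G)

theorem fixed_unique (S : Sylow p G) (hW : IsWeaklyClosed W (S : Subgroup G))
    (τ : G ⧸ HH) (hfix : ∀ w ∈ W, w • τ = τ) : τ = ((1 : G) : G ⧸ HH) := by
  set g := τ.out with hg
  have hτ : ((g : G) : G ⧸ HH) = τ := QuotientGroup.out_eq' τ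
  have hcj : ∀ w ∈ W, g⁻¹ * w * g ∈ HH := by
    intro w hw
    have h1 := hfix w hw
    rw [← hτ] at h1
    have h2 : ((w * g : G) : G ⧸ HH) = (g : G ⧸ HH) := h1
    have h3 := QuotientGroup.eq.mp h2.symm
    rwa [← mul_assoc] at h3
  have hRH : W.map (MulAut.conj g⁻¹).toMonoidHom ≤ HH := by
    rintro _ ⟨w, hw, rfl⟩
    simpa [MulAut.conj_apply] using hcj w hw
  have hRp : IsPGroup p (W.map (MulAut.conj g⁻¹).toMonoidHom) := (S.isPGroup'.to_le hW.1).map _
  obtain ⟨h, hh, hle⟩ := conj_into_sylow S HH (sylow_le_norm S hW) _ hRH hRp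
  have e : (W.map (MulAut.conj g⁻¹).toMonoidHom).map (MulAut.conj h).toMonoidHom =
      W.map (MulAut.conj (h * g⁻¹)).toMonoidHom := by
    rw [Subgroup.map_map]
    congr 1
    ext x
    simp [MulAut.conj_apply, mul_assoc]
  rw [e] at hle
  have hn : h * g⁻¹ ∈ HH := mem_normalizer_of_map (hW.2 _ hle)
  have hgH : g ∈ HH := by
    have := (HH).mul_mem ((HH).inv_mem hn) hh
    simpa [mul_assoc] using this
  rw [← hτ]
  apply QuotientGroup.eq.mpr
  simpa using (HH).inv_mem hgH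

theorem isCoatom_of_idx {Γ : Type*} [Group Γ] [Finite Γ] (hpp : p.Prime) (B : Subgroup Γ) (hAi : B.index = p) : IsCoatom B := by
  constructor
  · intro h
    rw [h, Subgroup.index_top] at hAi
    exact hpp.one_lt.ne hAi
  · intro C hC
    have h1 : C.index ∣ B.index := Subgroup.index_dvd_of_le hC.le
    rw [hAi] at h1
    rcases (Nat.dvd_prime hpp).mp h1 with h2 | h2
    · exact Subgroup.index_eq_one.mp h2
    · exfalso
      have h3 := Subgroup.relIndex_mul_index hC.le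
      rw [hAi, h2] at h3
      have h4 : B.relIndex C = 1 := by
        have := hpp.pos
        exact Nat.eq_of_mul_eq_mul_right this (by rw [h3, one_mul])
      rw [Subgroup.relIndex_eq_one] at h4
      exact hC.not_ge h4

/-- The hypothesis on the iterated commutators. -/
def WYHyp (p : ℕ) (S W : Subgroup G) : Prop :=
  ∀ x ∈ S, ∀ z ∈ W, ∀ W₀ : Subgroup ↥W, IsCoatom W₀ →
    (fun y : G => y⁻¹ * z⁻¹ * y * z)^[p - 1] x ∈ W₀.map W.subtype →
    (fun y : G => y⁻¹ * z⁻¹ * y * z)^[p - 1] x ∈ ((frattini ↥W₀).map W₀.subtype).map W.subtype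

open Classical in
theorem block (S : Sylow p G) (hW : IsWeaklyClosed W (S : Subgroup G))
    (hyp : WYHyp p (S : Subgroup G) W) {A : Type*} [CommGroup A] (hA : ∀ a : A, a ^ p = 1)
    (θ : HH →* A) [Fintype (G ⧸ HH)]
    {y : G} (hy : y ∈ (S : Subgroup G)) (τ : G ⧸ HH)
    (hτ : τ ≠ ((1 : G) : G ⧸ HH)) (hyτ : y • τ = τ) :
    ∏ ω ∈ Finset.univ.filter (· ∈ MulAction.orbit ↥(W ⊔ zpowers y) τ), cc (HH) θ y ω = 1 := by
  have hpp : p.Prime := hpf.out
  set K : Subgroup G := W ⊔ zpowers y with hK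
  have hKS : K ≤ S := sup_le hW.1 (zpowers_le.mpr hy)
  have hKp : IsPGroup p K := S.isPGroup'.to_le hKS
  have hWK : W ≤ K := le_sup_left
  have hyK : y ∈ K := (le_sup_right : zpowers y ≤ K) (mem_zpowers y)
  have hWn : ∀ k ∈ K, ∀ w ∈ W, k * w * k⁻¹ ∈ W := fun k hk w hw =>
    (mem_normalizer_iff.mp (sylow_le_norm S hW (hKS hk)) w).mp hw
  obtain ⟨w₁, hw₁, hw₁τ⟩ : ∃ w ∈ W, w • τ ≠ τ := by
    by_contra hcon
    push_neg at hcon
    exact hτ (fixed_unique S hW τ hcon)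
  -- the maximal subgroup
  set L' : Subgroup ↥K := (MulAction.stabilizer G τ).subgroupOf K with hL'
  have hL'top : L' ≠ ⊤ := by
    intro h
    have h1 : (⟨w₁, hWK hw₁⟩ : ↥K) ∈ L' := by rw [h]; trivial
    exact hw₁τ (mem_subgroupOf.mp h1)
  obtain ⟨M', hM', hLM'⟩ := (eq_top_or_exists_le_coatom L').resolve_left hL'top
  obtain ⟨hM'n, hM'i⟩ := CfsgLib.Solv.coatom_of_pgroup hKp hM'
  set M : Subgroup G := M'.map K.subtype with hM
  have hmemM : ∀ k : ↥K, (k : G) ∈ M ↔ k ∈ M' := by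
    intro k
    constructor
    · rintro ⟨k', hk', he⟩
      have : k' = k := Subtype.ext he
      rwa [← this]
    · intro hk
      exact ⟨k, hk, rfl⟩
  have hMK : M ≤ K := map_subtype_le M'
  have hMn : ∀ k ∈ K, ∀ m ∈ M, k * m * k⁻¹ ∈ M := by
    intro k hk m hm
    have hm' : (⟨m, hMK hm⟩ : ↥K) ∈ M' := (hmemM ⟨m, hMK hm⟩).mp hm
    have := hM'n.conj_mem _ hm' ⟨k, hk⟩
    exact (hmemM _).mpr this
  have hyM : y ∈ M := (hmemM ⟨y, hyK⟩).mpr (hLM' (mem_subgroupOf.mpr hyτ))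
  -- the element `z`
  obtain ⟨z, hzW, hzM⟩ : ∃ z ∈ W, z ∉ M := by
    by_contra hcon
    push_neg at hcon
    have hKM : K ≤ M := sup_le hcon (zpowers_le.mpr hyM)
    apply hM'.1
    rw [eq_top_iff]
    intro k _
    exact (hmemM k).mp (hKM k.2)
  have hzK : z ∈ K := hWK hzW
  set zt : ↥K := ⟨z, hzK⟩ with hzt
  have hzt' : zt ∉ M' := fun h => hzM ((hmemM zt).mpr h)
  have hcq : Nat.card (↥K ⧸ M') = p := by rw [← Subgroup.index_eq_card]; exact hM'i
  have hzq : (zt : ↥K ⧸ M') ≠ 1 := by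
    intro h
    exact hzt' ((QuotientGroup.eq_one_iff _).mp h)
  haveI : Fact (Nat.card (↥K ⧸ M')).Prime := ⟨by rw [hcq]; exact hpp⟩
  have hzo : orderOf (zt : ↥K ⧸ M') = p := by
    have h1 : orderOf (zt : ↥K ⧸ M') ∣ p := by
      rw [← hcq]
      exact orderOf_dvd_natCard _
    rcases (Nat.dvd_prime hpp).mp h1 with h2 | h2
    · exact absurd (orderOf_eq_one_iff.mp h2) hzq
    · exact h2
  -- every element of `K` is `z ^ i * m`
  have hdec : ∀ k ∈ K, ∃ i, i < p ∧ ∃ m ∈ M, k = z ^ i * m := by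
    intro k hk
    have h1 : ((⟨k, hk⟩ : ↥K) : ↥K ⧸ M') ∈ Submonoid.powers (zt : ↥K ⧸ M') :=
      mem_powers_of_prime_card hcq hzq
    obtain ⟨n, hn⟩ := h1
    refine ⟨n % p, Nat.mod_lt _ hpp.pos, ?_⟩
    have h2 : (zt : ↥K ⧸ M') ^ (n % p) = ((⟨k, hk⟩ : ↥K) : ↥K ⧸ M') := by
      have h3 := pow_mod_orderOf (zt : ↥K ⧸ M') n
      rw [hzo] at h3
      exact h3.trans hn
    have h3 : ((zt ^ (n % p) : ↥K) : ↥K ⧸ M') = ((⟨k, hk⟩ : ↥K) : ↥K ⧸ M') := by
      rw [QuotientGroup.mk_pow]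
      exact h2
    have h4 := QuotientGroup.eq.mp h3
    refine ⟨(z ^ (n % p))⁻¹ * k, ?_, by group⟩
    exact (hmemM _).mpr h4
  have hzqm : ∀ (a : ℕ) (b : G) (hb : b ∈ M) (hk : z ^ a * b ∈ K),
      ((⟨z ^ a * b, hk⟩ : ↥K) : ↥K ⧸ M') = (zt : ↥K ⧸ M') ^ a := by
    intro a b hb hk
    have h1 : (⟨z ^ a * b, hk⟩ : ↥K) = zt ^ a * ⟨b, hMK hb⟩ := Subtype.ext (by simp [hzt])
    rw [h1, QuotientGroup.mk_mul, QuotientGroup.mk_pow]
    have h2 : ((⟨b, hMK hb⟩ : ↥K) : ↥K ⧸ M') = 1 := (QuotientGroup.eq_one_iff _).mpr ((hmemM _).mp hb)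
    rw [h2, mul_one]
  have huniq : ∀ i j, i < p → j < p → ∀ m ∈ M, ∀ m' ∈ M, (z ^ i * m) • τ = (z ^ j * m') • τ → i = j := by
    intro i j hi hj m hm m' hm' he
    have h1 : (z ^ j * m')⁻¹ * (z ^ i * m) ∈ MulAction.stabilizer G τ := by
      rw [MulAction.mem_stabilizer_iff, mul_smul, he, inv_smul_smul]
    have hK1 : z ^ i * m ∈ K := K.mul_mem (K.pow_mem hzK i) (hMK hm)
    have hK2 : z ^ j * m' ∈ K := K.mul_mem (K.pow_mem hzK j) (hMK hm')
    have h2 : (⟨z ^ j * m', hK2⟩ : ↥K)⁻¹ * ⟨z ^ i * m, hK1⟩ ∈ M' := hLM' (mem_subgroupOf.mpr h1)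
    have h3 := QuotientGroup.eq.mpr h2
    rw [hzqm j m' hm' hK2, hzqm i m hm hK1] at h3
    exact pow_injOn_Iio_orderOf (by rw [Set.mem_Iio, hzo]; exact hi) (by rw [Set.mem_Iio, hzo]; exact hj) h3.symm
  -- the `M`-orbit
  set Y₀ : Finset (G ⧸ HH) := Finset.univ.filter (fun ω => ∃ m ∈ M, m • τ = ω) with hY₀
  have hY₀mem : ∀ ω, ω ∈ Y₀ ↔ ∃ m ∈ M, m • τ = ω := by
    intro ω
    simp [hY₀]
  have hStb : ∀ m ∈ M, Stb (HH) Y₀ m := by
    intro m hm ω
    rw [hY₀mem, hY₀mem]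
    constructor
    · rintro ⟨m₁, hm₁, rfl⟩
      exact ⟨m * m₁, M.mul_mem hm hm₁, mul_smul _ _ _⟩
    · rintro ⟨m₁, hm₁, he⟩
      refine ⟨m⁻¹ * m₁, M.mul_mem (M.inv_mem hm) hm₁, ?_⟩
      rw [mul_smul, he, inv_smul_smul]
  have hB : Finset.univ.filter (· ∈ MulAction.orbit ↥K τ) =
      (Finset.range p ×ˢ Y₀).image (fun q : ℕ × (G ⧸ HH) => z ^ q.1 • q.2) := by
    ext ω
    simp only [Finset.mem_filter, Finset.mem_univ, true_and, Finset.mem_image, Finset.mem_product, Finset.mem_range,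
      Prod.exists]
    constructor
    · rintro ⟨⟨k, hk⟩, rfl⟩
      obtain ⟨i, hi, m, hm, rfl⟩ := hdec k hk
      exact ⟨i, m • τ, ⟨hi, (hY₀mem _).mpr ⟨m, hm, rfl⟩⟩, (mul_smul _ _ _).symm⟩
    · rintro ⟨i, ω', ⟨hi, hω'⟩, rfl⟩
      obtain ⟨m, hm, rfl⟩ := (hY₀mem _).mp hω'
      exact ⟨⟨z ^ i * m, K.mul_mem (K.pow_mem hzK i) (hMK hm)⟩, (mul_smul (z ^ i) m τ : (z ^ i * m) • τ = z ^ i • m • τ)⟩
  have hinj : Set.InjOn (fun q : ℕ × (G ⧸ HH) => z ^ q.1 • q.2) (Finset.range p ×ˢ Y₀ : Finset _) := by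
    rintro ⟨i, ω⟩ hq ⟨j, ω'⟩ hq' he
    simp only [Finset.coe_product, Set.mem_prod, Finset.mem_coe, Finset.mem_range] at hq hq'
    obtain ⟨m, hm, rfl⟩ := (hY₀mem _).mp hq.2
    obtain ⟨m', hm', rfl⟩ := (hY₀mem _).mp hq'.2
    have h1 : i = j := huniq i j hq.1 hq'.1 m hm m' hm' (by simpa [mul_smul] using he)
    subst h1
    simpa using he
  rw [hB, Finset.prod_image hinj, Finset.prod_product]
  set yk : ℕ → G := fun k => (fun v : G => v⁻¹ * z⁻¹ * v * z)^[k] y with hyk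
  have hyks : ∀ k, yk (k + 1) = (yk k)⁻¹ * z⁻¹ * yk k * z := fun k => Function.iterate_succ_apply' _ _ _
  have hykM : ∀ k, yk k ∈ M := by
    intro k
    induction k with
    | zero => exact hyM
    | succ k ih =>
      rw [hyks]
      have h1 : z⁻¹ * yk k * z ∈ M := by
        have := hMn z⁻¹ (K.inv_mem hzK) _ ih
        simpa using this
      have h2 : (yk k)⁻¹ * z⁻¹ * yk k * z = (yk k)⁻¹ * (z⁻¹ * yk k * z) := by group
      rw [h2]
      exact M.mul_mem (M.inv_mem ih) h1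
  have hconjM : ∀ i k, (z ^ i)⁻¹ * yk k * z ^ i ∈ M := by
    intro i k
    have := hMn (z ^ i)⁻¹ (K.inv_mem (K.pow_mem hzK i)) _ (hykM k)
    simpa using this
  set F : ℕ → ℕ → A := fun k i => TT (HH) θ Y₀ ((z ^ i)⁻¹ * yk k * z ^ i) with hF
  have hFrec : ∀ k i, F k (i + 1) = F k i * F (k + 1) i := by
    intro k i
    show TT _ θ Y₀ _ = TT _ θ Y₀ _ * TT _ θ Y₀ _
    rw [← TT_mul _ θ (hStb _ (hconjM i (k + 1)))]
    congr 1
    rw [hyks, pow_succ']
    group
  have hP := seq_pascal hpp hA F hFrec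
  refine Eq.trans (?_ : _ = ∏ i ∈ Finset.range p, F 0 i) (hP.trans ?_)
  · apply Finset.prod_congr rfl
    intro i _
    exact prod_shift _ θ y (z ^ i) (hStb _ (hconjM i 0))
  show TT _ θ Y₀ ((z ^ 0)⁻¹ * yk (p - 1) * z ^ 0) = 1
  have e0 : (z ^ 0)⁻¹ * yk (p - 1) * z ^ 0 = yk (p - 1) := by simp
  rw [e0]
  have hcM : yk (p - 1) ∈ M := hykM _
  have hcW : yk (p - 1) ∈ W := by
    obtain ⟨q, hq⟩ : ∃ q, p - 1 = q + 1 := ⟨p - 2, by have := hpp.two_le; omega⟩
    rw [hq, hyks]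
    have h1 : (yk q)⁻¹ * z⁻¹ * yk q ∈ W := by
      have := hWn (yk q)⁻¹ (K.inv_mem (hMK (hykM q))) z⁻¹ (W.inv_mem hzW)
      simpa using this
    exact W.mul_mem h1 hzW
  -- the maximal subgroup of `W`
  let fW : ↥W →* ↥K ⧸ M' := (QuotientGroup.mk' M').comp (Subgroup.inclusion hWK)
  have hfW : ∀ w : ↥W, w ∈ fW.ker ↔ (w : G) ∈ M := by
    intro w
    rw [MonoidHom.mem_ker]
    show ((⟨w, hWK w.2⟩ : ↥K) : ↥K ⧸ M') = 1 ↔ _
    rw [QuotientGroup.eq_one_iff, ← hmemM]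
  have hfWr : fW.range = ⊤ := by
    rw [eq_top_iff]
    intro q _
    have h1 : q ∈ Submonoid.powers (zt : ↥K ⧸ M') := mem_powers_of_prime_card hcq hzq
    obtain ⟨n, rfl⟩ := h1
    refine ⟨(⟨z, hzW⟩ : ↥W) ^ n, ?_⟩
    rw [map_pow]
    rfl
  have hW₀i : fW.ker.index = p := by
    rw [Subgroup.index_ker, hfWr, Subgroup.card_top, hcq]
  have hW₀c : IsCoatom fW.ker := isCoatom_of_idx hpp fW.ker hW₀i
  have hcmem : yk (p - 1) ∈ fW.ker.map W.subtype := ⟨⟨_, hcW⟩, (hfW _).mpr hcM, rfl⟩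
  have hfrat := hyp y hy z hzW fW.ker hW₀c hcmem
  obtain ⟨_, ⟨φ, hφ, rfl⟩, hφc⟩ := hfrat
  let ρ : ↥fW.ker →* A := MonoidHom.mk' (fun a => TT (HH) θ Y₀ ((a : ↥W) : G)) (by
    intro a b
    exact TT_mul _ θ (hStb _ ((hfW _).mp b.2)))
  have hW₀p : IsPGroup p ↥fW.ker := (S.isPGroup'.to_le hW.1).to_subgroup _
  have hker : frattini ↥fW.ker ≤ ρ.ker := by
    apply CfsgLib.Solv.frattini_le_of_commutator_pow hW₀p
    · rw [_root_.commutator_def, Subgroup.commutator_le]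
      intro a _ b _
      rw [MonoidHom.mem_ker, map_commutatorElement, commutatorElement_eq_one_iff_mul_comm]
      exact mul_comm _ _
    · intro x
      rw [MonoidHom.mem_ker, map_pow, hA]
  have h1 : ρ φ = 1 := hker hφ
  have h2 : ((φ : ↥W) : G) = yk (p - 1) := hφc
  rw [← h2]
  exact h1

/-- The transfer as a homomorphism. -/
noncomputable def VV (H : Subgroup G) {A : Type*} [CommGroup A] (θ : H →* A) [Fintype (G ⧸ H)] : G →* A :=
  MonoidHom.mk' (fun u => TT H θ Finset.univ u) (fun a b => TT_mul H θ (fun ω => by simp))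

theorem VV_conj (H : Subgroup G) {A : Type*} [CommGroup A] (θ : H →* A) [Fintype (G ⧸ H)] (g u : G) :
    VV H θ (g * u * g⁻¹) = VV H θ u := by
  rw [map_mul, map_mul, map_inv, mul_comm (VV H θ g), mul_assoc, mul_inv_cancel, mul_one]

open Classical in
theorem eval_sylow (S : Sylow p G) (hW : IsWeaklyClosed W (S : Subgroup G))
    (hyp : WYHyp p (S : Subgroup G) W) {A : Type*} [CommGroup A] (hA : ∀ a : A, a ^ p = 1)
    (θ : HH →* A) [Fintype (G ⧸ HH)] :
    ∀ n, ∀ y ∈ (S : Subgroup G), orderOf y = n → VV (HH) θ y = ex (HH) θ y := by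
  intro n
  induction n using Nat.strong_induction_on with
  | _ n IH =>
    intro y hy hn
    have hpp := hpf.out
    have hyH : y ∈ HH := sylow_le_norm S hW hy
    have hbfix : ∀ k ∈ HH, k • ((1 : G) : G ⧸ HH) = ((1 : G) : G ⧸ HH) := by
      intro k hk
      show ((k * 1 : G) : G ⧸ HH) = _
      rw [mul_one]
      exact QuotientGroup.eq.mpr (by simpa using (HH).inv_mem hk)
    have hbase_val : cc (HH) θ y ((1 : G) : G ⧸ HH) = ex (HH) θ y := by
      unfold cc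
      rw [hbfix y hyH]
      have hout : (((1 : G) : G ⧸ HH)).out ∈ HH := by
        have := QuotientGroup.out_eq' ((1 : G) : G ⧸ HH)
        simpa using (HH).inv_mem (QuotientGroup.eq.mp this)
      exact ex_conj _ θ hyH hout
    show TT _ θ Finset.univ y = _
    unfold TT
    rw [← Finset.mul_prod_erase Finset.univ _ (Finset.mem_univ ((1 : G) : G ⧸ HH)), hbase_val]
    suffices h : ∏ ω ∈ Finset.univ.erase ((1 : G) : G ⧸ HH), cc (HH) θ y ω = 1 by rw [h, mul_one]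
    set K : Subgroup G := W ⊔ zpowers y with hK
    have hKS : K ≤ S := sup_le hW.1 (zpowers_le.mpr hy)
    have hKH : K ≤ HH := hKS.trans (sylow_le_norm S hW)
    have hnb0 : ∀ (k : ↥K) ω, ω ≠ ((1 : G) : G ⧸ HH) → k • ω ≠ ((1 : G) : G ⧸ HH) := by
      intro k ω hω h
      apply hω
      have h2 : (k : G) • ω = ((1 : G) : G ⧸ HH) := h
      have h3 := hbfix (k : G)⁻¹ ((HH).inv_mem (hKH k.2))
      rw [← h2, inv_smul_smul] at h3
      exact h3.trans h2
    apply prod_orbits (K := ↥K)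
    · intro k ω hω
      rw [Finset.mem_erase] at hω ⊢
      exact ⟨hnb0 k ω hω.1, Finset.mem_univ _⟩
    · intro ω hω
      have hωb := (Finset.mem_erase.mp hω).1
      have hnb : ∀ τ ∈ MulAction.orbit ↥K ω, τ ≠ ((1 : G) : G ⧸ HH) := by
        rintro _ ⟨k, rfl⟩
        exact hnb0 k ω hωb
      by_cases hfx : ∃ τ ∈ MulAction.orbit ↥K ω, y • τ = τ
      · obtain ⟨τ, hτ, hyτ⟩ := hfx
        rw [← MulAction.orbit_eq_iff.mpr hτ]
        exact block S hW hyp hA θ hy τ (hnb τ hτ) hyτ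
      · push_neg at hfx
        apply prod_orbits (K := ↥(zpowers y))
        · intro x ω' hω'
          rw [Finset.mem_filter] at hω' ⊢
          refine ⟨Finset.mem_univ _, ?_⟩
          have hxK : (x : G) ∈ K := (le_sup_right : zpowers y ≤ K) x.2
          exact MulAction.mem_orbit_of_mem_orbit (⟨x, hxK⟩ : ↥K) hω'.2
        · intro ω' hω'
          have hω'o := (Finset.mem_filter.mp hω').2
          rw [prod_cycle]
          set m := Function.minimalPeriod (y • ·) ω' with hm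
          have hym : y ^ m • ω' = ω' := MulAction.pow_smul_eq_iff_minimalPeriod_dvd.mpr dvd_rfl
          have hne : y • ω' ≠ ω' := hfx ω' hω'o
          obtain ⟨k, hk⟩ : ∃ k, y ^ (p ^ k) = 1 := by
            obtain ⟨k, hk⟩ := S.isPGroup' ⟨y, hy⟩
            exact ⟨k, by simpa using congrArg Subtype.val hk⟩
          have hoy : orderOf y ∣ p ^ k := orderOf_dvd_of_pow_eq_one hk
          have hmd : m ∣ orderOf y := MulAction.pow_smul_eq_iff_minimalPeriod_dvd.mp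
            (by rw [pow_orderOf_eq_one, one_smul])
          have hm1 : m ≠ 1 := by
            intro h
            apply hne
            have h2 := hym
            rw [h, pow_one] at h2
            exact h2
          have hpm : p ∣ m := by
            obtain ⟨j, hj, hj'⟩ := (Nat.dvd_prime_pow hpp).mp (hmd.trans hoy)
            rw [hj']
            apply dvd_pow_self
            rintro rfl
            exact hm1 (by rw [hj', pow_zero])
          have hm0 : m ≠ 0 := Nat.pos_iff_ne_zero.mp (Nat.pos_of_dvd_of_pos hmd (orderOf_pos y))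
          have hpo : p ∣ orderOf y := hpm.trans hmd
          have hlt : orderOf (y ^ m) < n := by
            rw [orderOf_pow' y hm0, ← hn]
            apply Nat.div_lt_self (orderOf_pos y)
            have h2 : p ∣ Nat.gcd (orderOf y) m := Nat.dvd_gcd hpo hpm
            exact lt_of_lt_of_le hpp.one_lt (Nat.le_of_dvd (Nat.gcd_pos_of_pos_left _ (orderOf_pos y)) h2)
          have hymS : y ^ m ∈ (S : Subgroup G) := S.pow_mem hy m
          have hV1 : VV (HH) θ (y ^ m) = ex (HH) θ (y ^ m) := IH _ hlt _ hymS rfl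
          have hex1 : ex (HH) θ (y ^ m) = 1 := by
            rw [ex_pow _ θ hyH]
            obtain ⟨d, hd⟩ := hpm
            rw [hd, pow_mul, hA, one_pow]
          have hmem : ω'.out⁻¹ * y ^ m * ω'.out ∈ HH := by
            have h2 := cc_mem (HH) (y ^ m) ω'
            rw [hym] at h2
            exact h2
          obtain ⟨h, hh, hhS⟩ := conj_elem S (HH) (sylow_le_norm S hW) hymS ω'.out⁻¹ (by simpa using hmem)
          have hord : orderOf ((h * ω'.out⁻¹) * y ^ m * (h * ω'.out⁻¹)⁻¹) = orderOf (y ^ m) := by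
            exact MulEquiv.orderOf_eq (MulAut.conj (h * ω'.out⁻¹)) (y ^ m)
          have hV2 := IH _ (hord ▸ hlt) _ hhS rfl
          have hV3 := VV_conj (HH) θ (h * ω'.out⁻¹) (y ^ m)
          have hex2 : ex (HH) θ ((h * ω'.out⁻¹) * y ^ m * (h * ω'.out⁻¹)⁻¹) = ex (HH) θ (ω'.out⁻¹ * y ^ m * ω'.out) := by
            have e : (h * ω'.out⁻¹) * y ^ m * (h * ω'.out⁻¹)⁻¹ = h⁻¹⁻¹ * (ω'.out⁻¹ * y ^ m * ω'.out) * h⁻¹ := by group
            rw [e]
            exact ex_conj _ θ hmem ((HH).inv_mem hh)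
          unfold cc
          rw [hym, ← hex2, ← hV2, hV3, hV1, hex1]

theorem wy_transfer (S : Sylow p G) (hW : IsWeaklyClosed W (S : Subgroup G))
    (hyp : WYHyp p (S : Subgroup G) W) {A : Type*} [CommGroup A] (hA : ∀ a : A, a ^ p = 1)
    (θ : HH →* A) : ∃ V : G →* A, ∀ y ∈ (S : Subgroup G), ∀ hy : y ∈ HH, V y = θ ⟨y, hy⟩ := by
  classical
  letI := Fintype.ofFinite (G ⧸ HH)
  refine ⟨VV (HH) θ, fun y hy hy' => ?_⟩
  rw [eval_sylow S hW hyp hA θ _ y hy rfl, ex_of_mem _ θ hy']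

theorem hom_eq_of_sylow (H : Subgroup G) (S : Sylow p G) (hSH : (S : Subgroup G) ≤ H) {A : Type*} [Group A] [Finite A]
    (hAp : IsPGroup p A) (δ : H →* A) (hδ : ∀ s (hs : s ∈ (S : Subgroup G)), δ ⟨s, hSH hs⟩ = 1) : δ = 1 := by
  have hpp := hpf.out
  have hle : ((S.subtype hSH : Sylow p H) : Subgroup H) ≤ δ.ker := by
    intro x hx
    rw [Sylow.coe_subtype, mem_subgroupOf] at hx
    exact hδ _ hx
  have h1 : δ.ker.index ∣ ((S.subtype hSH : Sylow p H) : Subgroup H).index := Subgroup.index_dvd_of_le hle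
  have h2 : ¬ p ∣ ((S.subtype hSH : Sylow p H) : Subgroup H).index := (S.subtype hSH).not_dvd_index
  obtain ⟨a, ha⟩ := IsPGroup.iff_card.mp (hAp.to_subgroup δ.range)
  have h3 : δ.ker.index = p ^ a := by rw [Subgroup.index_ker, ha]
  have ha0 : a = 0 := by
    by_contra hne
    apply h2
    exact dvd_trans (dvd_pow_self p hne) (h3 ▸ h1)
  have h4 : δ.ker = ⊤ := by
    apply Subgroup.index_eq_one.mp
    rw [h3, ha0, pow_zero]
  ext x
  have h5 : x ∈ δ.ker := by rw [h4]; trivial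
  simpa using h5

end CfsgLib.WY
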